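import Cfsg.Agent.Chev.Classical.RepB2
import Cfsg.Agent.Chev.Classical.D4

/-!
# The Chevalley group of type B2 is the orthogonal group in dimension five

The isometry group of the five-dimensional form is the Eichler subgroup times an abelian group.
-/

set_option autoImplicit false

namespace Cfsg.Agent.Chev.Classical

open Cfsg.Lie Cfsg.Agent.Classical QuadraticMap
open scoped commutatorElement

variable {F : Type*} [Field F]

/-- The three-dimensional form. -/
abbrev q3 (F : Type*) [Field F] : QuadraticForm F ((F × F) × F) := hypAdd (QuadraticMap.sq)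

/-- The five-dimensional form. -/
abbrev q5 (F : Type*) [Field F] : QuadraticForm F ((F × F) × ((F × F) × F)) := hypAdd (q3 F)

theorem polar_sq (x y : F) : polar (QuadraticMap.sq : QuadraticForm F F) x y = 2 * x * y := by
  simp [polar]; ring

theorem qNondeg_q3 : QNondeg (q3 F) := qNondeg_hypAdd (qNondeg_of_anisotropic anisotropic_sqQF)

/-- The Eichler subgroup moves every singular line to the line of the first plane vector. -/
theorem exists_line {v : (F × F) × F} (h0 : q3 F v = 0) :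
    ∃ h ∈ EQ (q3 F), ∃ c : F, h.1 v = c • hE F F := by
  obtain ⟨⟨x, y⟩, z⟩ := v
  simp only [hypAdd_apply, QuadraticMap.sq_apply] at h0
  rcases eq_or_ne y 0 with rfl | hy
  · have hz : z = 0 := by simpa using h0
    subst hz
    exact ⟨1, one_mem _, x, by simp [Prod.ext_iff]⟩
  have h1 : q3 F (hE F F) = 0 := by simp
  have h2 : ∀ a : F, polar (q3 F) (hE F F) (((0, 0), a) : (F × F) × F) = 0 := fun a => by simp
  have h3 : q3 F (hF F F) = 0 := by simp
  have h4 : ∀ a : F, polar (q3 F) (hF F F) (((0, 0), a) : (F × F) × F) = 0 := fun a => by simp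
  refine ⟨siegel (q3 F) h3 (h4 1) * (siegel (q3 F) h1 (h2 1) *
    siegel (q3 F) h1 (h2 (-(z / y)))), mul_mem (siegel_mem_EQ _ _ _)
    (mul_mem (siegel_mem_EQ _ _ _) (siegel_mem_EQ _ _ _)), -y, ?_⟩
  have hx : x = -(z * z) / y := by
    rw [eq_div_iff hy]; linear_combination h0
  simp only [Subgroup.coe_mul, LinearEquiv.mul_apply]
  simp [siegel_apply, polar_sq, Prod.ext_iff, hx]
  refine ⟨⟨?_, ?_⟩, ?_⟩ <;> field_simp <;> ring

/-- An isometry of the three-dimensional form is, up to the Eichler subgroup, diagonal. -/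
theorem exists_diag (k : OQ (q3 F)) :
    ∃ h ∈ EQ (q3 F), ∃ c : F, c ≠ 0 ∧ (h * k).1 (hE F F) = c • hE F F ∧
      (h * k).1 (hF F F) = c⁻¹ • hF F F := by
  obtain ⟨h, hh, c, hc⟩ := exists_line (v := k.1 (hE F F)) (by simp)
  have hp := (isPair_hypAdd (QuadraticMap.sq : QuadraticForm F F)).map (h * k)
  have he : (h * k).1 (hE F F) = c • hE F F := hc
  rw [he] at hp
  have hc0 : c ≠ 0 := fun e => by
    have := hp.2.2
    rw [e, zero_smul, polar_zero_left] at this
    exact zero_ne_one this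
  have h1 : polar (q3 F) (hE F F) (c • (h * k).1 (hF F F)) = 1 := by
    simpa [polar_smul_left, polar_smul_right] using hp.2.2
  obtain ⟨ha, e1, e2⟩ := siegel_move (Q := q3 F) (u := hE F F) (y := c • (h * k).1 (hF F F))
    (z := hF F F) (by simp) (by rw [QuadraticMap.map_smul, hp.2.1]; simp) h1 (by simp)
  refine ⟨siegel (q3 F) (by simp) ha * h, mul_mem (siegel_mem_EQ _ _ _) hh, c, hc0, ?_, ?_⟩
  · rw [mul_assoc, Subgroup.coe_mul, LinearEquiv.mul_apply, he, map_smul, e1]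
  · rw [mul_assoc, Subgroup.coe_mul, LinearEquiv.mul_apply]
    rw [map_smul] at e2
    conv_rhs => rw [← e2, smul_smul, inv_mul_cancel₀ hc0, one_smul]

/-- The diagonal isometries commute. -/
theorem diag_commute {k l : OQ (q3 F)} {c d : F} (hc : c ≠ 0) (hd : d ≠ 0)
    (k1 : k.1 (hE F F) = c • hE F F) (k2 : k.1 (hF F F) = c⁻¹ • hF F F)
    (l1 : l.1 (hE F F) = d • hE F F) (l2 : l.1 (hF F F) = d⁻¹ • hF F F) : Commute k l := by
  have hax : ∀ (m : OQ (q3 F)) (e : F), e ≠ 0 → m.1 (hE F F) = e • hE F F →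
      m.1 (hF F F) = e⁻¹ • hF F F →
      m.1 (((0, 0), 1) : (F × F) × F) = (((0, 0), (m.1 (((0, 0), 1) : (F × F) × F)).2)) := by
    intro m e he m1 m2
    have a1 := OQ_polar m (hE F F) (((0, 0), 1) : (F × F) × F)
    have a2 := OQ_polar m (hF F F) (((0, 0), 1) : (F × F) × F)
    rw [m1, polar_smul_left] at a1
    rw [m2, polar_smul_left] at a2
    simp [he] at a1 a2
    exact Prod.ext (Prod.ext a2 a1) rfl
  have hlin : ∀ (m : OQ (q3 F)) (x y z : F), m.1 (((x, y), z) : (F × F) × F) =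
      x • m.1 (hE F F) + y • m.1 (hF F F) + z • m.1 (((0, 0), 1) : (F × F) × F) := by
    intro m x y z
    rw [← map_smul, ← map_smul, ← map_smul, ← map_add, ← map_add]
    congr 1
    simp [Prod.ext_iff]
  have hform : ∀ (m : OQ (q3 F)) (e : F), e ≠ 0 → m.1 (hE F F) = e • hE F F →
      m.1 (hF F F) = e⁻¹ • hF F F → ∀ x y z : F, m.1 (((x, y), z) : (F × F) × F) =
        ((e * x, e⁻¹ * y), z * (m.1 (((0, 0), 1) : (F × F) × F)).2) := by
    intro m e he m1 m2 x y z
    rw [hlin m, m1, m2, hax m e he m1 m2]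
    simp [Prod.ext_iff, mul_comm]
  refine Subtype.ext (LinearEquiv.ext fun v => ?_)
  obtain ⟨⟨x, y⟩, z⟩ := v
  simp only [Subgroup.coe_mul, LinearEquiv.mul_apply]
  rw [hform l d hd l1 l2 x y z, hform k c hc k1 k2 x y z, hform k c hc k1 k2 (d * x) (d⁻¹ * y),
    hform l d hd l1 l2 (c * x) (c⁻¹ * y)]
  refine Prod.ext (Prod.ext ?_ ?_) ?_ <;> ring

/-- The commutators of isometries lie in the Eichler subgroup. -/
theorem commutator_le_EQ : commutator (OQ (q5 F)) ≤ EQ (q5 F) := by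
  have hn := EQ_normal (q5 F)
  have h2p : HasTwoPairs (q5 F) :=
    ⟨_, _, _, _, (isPair_hypAdd (QuadraticMap.sq : QuadraticForm F F)).hypAdd⟩
  have hdec : ∀ g : OQ (q5 F), ∃ h ∈ EQ (q5 F), ∃ (k : OQ (q3 F)) (c : F), c ≠ 0 ∧
      k.1 (hE F F) = c • hE F F ∧ k.1 (hF F F) = c⁻¹ • hF F F ∧ g = h * hypLift (q3 F) k := by
    intro g
    obtain ⟨h₁, hh₁, e1, e2⟩ := EQ_transitive_pairs (qNondeg_hypAdd qNondeg_q3) h2p
      ((isPair_hypAdd (q3 F)).map g) (isPair_hypAdd (q3 F))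
    obtain ⟨k, hk⟩ := exists_hypLift (h₁ * g)
      (by rw [Subgroup.coe_mul, LinearEquiv.mul_apply]; exact e1)
      (by rw [Subgroup.coe_mul, LinearEquiv.mul_apply]; exact e2)
    obtain ⟨h₂, hh₂, c, hc, k1, k2⟩ := exists_diag k
    refine ⟨h₁⁻¹ * hypLift (q3 F) h₂⁻¹, mul_mem (inv_mem hh₁)
      (map_hypLift_EQ_le (Subgroup.mem_map_of_mem _ (inv_mem hh₂))), h₂ * k, c, hc, k1, k2, ?_⟩
    rw [mul_assoc, ← map_mul, inv_mul_cancel_left, hk, inv_mul_cancel_left]
  rw [commutator_def, Subgroup.commutator_le]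
  intro g _ g' _
  obtain ⟨h, hh, k, c, hc, k1, k2, rfl⟩ := hdec g
  obtain ⟨h', hh', l, d, hd, l1, l2, rfl⟩ := hdec g'
  set π := QuotientGroup.mk' (EQ (q5 F)) with hπ
  have e : ∀ x ∈ EQ (q5 F), π x = 1 := fun x hx => (QuotientGroup.eq_one_iff x).2 hx
  rw [← QuotientGroup.ker_mk' (EQ (q5 F)), MonoidHom.mem_ker, ← hπ, map_commutatorElement, map_mul,
    map_mul, e h hh, e h' hh', one_mul, one_mul, ← map_commutatorElement,
    commutatorElement_eq_one_iff_mul_comm.2
      ((diag_commute hc hd k1 k2 l1 l2).map (hypLift (q3 F))).eq, map_one]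

/-- The coordinates of the five-dimensional space. -/
def b2Equiv (F : Type*) [Field F] :
    (Unit ⊕ (Fin 2 ⊕ Fin 2) → F) ≃ₗ[F] (F × F) × ((F × F) × F) where
  toFun v := ((v (.inr (.inl 0)), v (.inr (.inr 0))),
    ((v (.inr (.inl 1)), v (.inr (.inr 1))), v (.inl ())))
  invFun w := Sum.elim (fun _ => w.2.2) (Sum.elim ![w.1.1, w.2.1.1] ![w.1.2, w.2.1.2])
  map_add' _ _ := rfl
  map_smul' _ _ := rfl
  left_inv v := by ext (i | i | i) <;> first | rfl | (fin_cases i <;> rfl)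
  right_inv _ := rfl

@[simp] theorem b2Equiv_apply (v : Unit ⊕ (Fin 2 ⊕ Fin 2) → F) :
    b2Equiv F v = ((v (.inr (.inl 0)), v (.inr (.inr 0))),
      ((v (.inr (.inl 1)), v (.inr (.inr 1))), v (.inl ()))) := rfl

@[simp] theorem b2Equiv_symm_apply (w : (F × F) × ((F × F) × F)) :
    (b2Equiv F).symm w =
      Sum.elim (fun _ => w.2.2) (Sum.elim ![w.1.1, w.2.1.1] ![w.1.2, w.2.1.2]) := rfl

/-- The positions of the five coordinates. -/
def b2Idx : Unit ⊕ (Fin 2 ⊕ Fin 2) ≃ Fin 5 where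
  toFun := Sum.elim (fun _ => 0) (Sum.elim ![1, 2] ![3, 4])
  invFun := ![.inl (), .inr (.inl 0), .inr (.inl 1), .inr (.inr 0), .inr (.inr 1)]
  left_inv := by decide
  right_inv := by decide

theorem form_B2 (v : Unit ⊕ (Fin 2 ⊕ Fin 2) → F) :
    Cfsg.quadFormOdd 2 F v = dotProduct (v ∘ b2Idx.symm)
      ((meval 0 0 repB2.form).mulVec (v ∘ b2Idx.symm)) := by
  simp [dotProduct, meval_mulVec_apply, -meval_cons, repB2, Fin.sum_univ_five, Fin.sum_univ_two,
    Cfsg.quadFormOdd, b2Idx, pow_two, add_assoc]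

theorem iso_B2 (F : Type*) [Field F] (hne : ∃ a : F, a ≠ 0 ∧ a ≠ 1) :
    Nonempty (↥(chevB2.group F) ≃* Cfsg.POmega F (Cfsg.quadFormOdd 2 F)) := by
  classical
  have hS : ChevGrp.Rules chevB2 F := rules_of_mem F (by simp)
  have hP := ChevGrp.perfectData_B2 F hne
  have hf : ∀ v, oddQF 2 F v = Cfsg.quadFormOdd 2 F v := fun v => oddQF_apply 2 v
  have hε : ∀ v, q5 F (b2Equiv F v) = oddQF 2 F v := fun v => by
    simp [hf, Cfsg.quadFormOdd, Fin.sum_univ_two, pow_two]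
    ring
  let Φ := (isometryGroupEquiv (Cfsg.quadFormOdd 2 F) (oddQF 2 F) hf).trans (OQCongr (b2Equiv F) hε)
  obtain ⟨ψ, hψ⟩ := exists_hom repB2_ok hS b2Idx (Cfsg.quadFormOdd 2 F) form_B2
  let ψ' : chevB2.SteinbergCover F →* OQ (q5 F) := Φ.toMonoidHom.comp ψ
  have hval : ∀ r < chevB2.nroots, ∀ (t : F) x, (ψ' (chevB2.scGen F r t)).1 x =
      b2Equiv F ((rootMat repB2 r t).mulVec ((b2Equiv F).symm x ∘ b2Idx.symm) ∘ b2Idx) :=
    fun r hr t x => by rw [← hψ r hr t ((b2Equiv F).symm x)]; rfl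
  have hgen : ∀ (r : ℕ) (t : F) (u a : (F × F) × ((F × F) × F)) (h1 : q5 F u = 0)
      (h2 : polar (q5 F) u a = 0), r < chevB2.nroots →
      (∀ x, b2Equiv F ((rootMat repB2 r t).mulVec ((b2Equiv F).symm x ∘ b2Idx.symm) ∘ b2Idx) =
        x + polar (q5 F) u x • a - polar (q5 F) a x • u - (q5 F a * polar (q5 F) u x) • u) →
      siegel (q5 F) h1 h2 ∈ ψ'.range := fun r t u a h1 h2 hr h =>
    ⟨chevB2.scGen F r t, Subtype.ext (LinearEquiv.ext fun x => by
      rw [hval r hr, siegel_apply, h])⟩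
  have hsum : ∀ (u : (F × F) × ((F × F) × F)) (h1 : q5 F u = 0),
      (∀ w : (F × F) × F, polar (q5 F) u ((0, 0), w) = 0) →
      (∀ (c : F) (h2 : polar (q5 F) u ((0, 0), ((c, 0), 0)) = 0), siegel (q5 F) h1 h2 ∈ ψ'.range) →
      (∀ (c : F) (h2 : polar (q5 F) u ((0, 0), ((0, c), 0)) = 0), siegel (q5 F) h1 h2 ∈ ψ'.range) →
      (∀ (c : F) (h2 : polar (q5 F) u ((0, 0), ((0, 0), c)) = 0), siegel (q5 F) h1 h2 ∈ ψ'.range) →
      ∀ (w : (F × F) × F) (h2 : polar (q5 F) u ((0, 0), w) = 0),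
        siegel (q5 F) h1 h2 ∈ ψ'.range := by
    intro u h1 hall ha hb hc w h2
    have := mul_mem (mul_mem (ha w.1.1 (hall _)) (hb w.1.2 (hall _))) (hc w.2 (hall _))
    rw [siegel_mul, siegel_mul] at this
    rwa [siegel_congr (q5 F) h1 _ h1 h2 rfl (by simp [Prod.ext_iff])] at this
  have hplane : HasPlane ψ'.range := by
    refine ⟨fun w h1 h2 => hsum _ h1 (fun w => by simp) (fun c h => ?_) (fun c h => ?_)
      (fun c h => ?_) w h2, fun w h1 h2 => hsum _ h1 (fun w => by simp) (fun c h => ?_)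
      (fun c h => ?_) (fun c h => ?_) w h2⟩
    · refine hgen 7 c _ _ h1 h (by decide) fun x => ?_
      obtain ⟨⟨x0, y0⟩, ⟨x1, y1⟩, z⟩ := x
      simp [rootMat, repB2, b2Idx, meval_mulVec_apply, -meval_cons, Matrix.add_mulVec,
        polar_sq, Prod.ext_iff] <;> ring_nf <;> simp
    · refine hgen 4 c _ _ h1 h (by decide) fun x => ?_
      obtain ⟨⟨x0, y0⟩, ⟨x1, y1⟩, z⟩ := x
      simp [rootMat, repB2, b2Idx, meval_mulVec_apply, -meval_cons, Matrix.add_mulVec,
        polar_sq, Prod.ext_iff] <;> ring_nf <;> simp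
    · refine hgen 6 (-c) _ _ h1 h (by decide) fun x => ?_
      obtain ⟨⟨x0, y0⟩, ⟨x1, y1⟩, z⟩ := x
      simp [rootMat, repB2, b2Idx, meval_mulVec_apply, -meval_cons, Matrix.add_mulVec,
        polar_sq, Prod.ext_iff] <;> ring_nf <;> simp
    · refine hgen 3 (-c) _ _ h1 h (by decide) fun x => ?_
      obtain ⟨⟨x0, y0⟩, ⟨x1, y1⟩, z⟩ := x
      simp [rootMat, repB2, b2Idx, meval_mulVec_apply, -meval_cons, Matrix.add_mulVec,
        polar_sq, Prod.ext_iff] <;> ring_nf <;> simp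
    · refine hgen 0 (-c) _ _ h1 h (by decide) fun x => ?_
      obtain ⟨⟨x0, y0⟩, ⟨x1, y1⟩, z⟩ := x
      simp [rootMat, repB2, b2Idx, meval_mulVec_apply, -meval_cons, Matrix.add_mulVec,
        polar_sq, Prod.ext_iff] <;> ring_nf <;> simp
    · refine hgen 1 c _ _ h1 h (by decide) fun x => ?_
      obtain ⟨⟨x0, y0⟩, ⟨x1, y1⟩, z⟩ := x
      simp [rootMat, repB2, b2Idx, meval_mulVec_apply, -meval_cons, Matrix.add_mulVec,
        polar_sq, Prod.ext_iff] <;> ring_nf <;> simp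
  have hle : ψ'.range ≤ commutator (OQ (q5 F)) := by
    rw [MonoidHom.range_eq_map, ← CentralExt.Cover.perfect hS hP, commutator_def,
      Subgroup.map_commutator]
    exact Subgroup.commutator_mono le_top le_top
  have hcomm : commutator (OQ (q5 F)) = ψ'.range := by
    refine le_antisymm (commutator_le_EQ.trans (EQ_le_of_plane hplane qNondeg_q3
      (isPair_hypAdd (QuadraticMap.sq : QuadraticForm F F)))) hle
  haveI : Nontrivial ψ'.range := by
    have h1 : q5 F (hE F ((F × F) × F)) = 0 := by simp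
    have h2 : polar (q5 F) (hE F ((F × F) × F))
        (((0, 0), ((1, 0), 0)) : (F × F) × ((F × F) × F)) = 0 := by simp
    refine ⟨⟨_, hplane.fst ((1, 0), 0) h1 h2⟩, 1, fun e => ?_⟩
    have e' := congrArg (fun g : OQ (q5 F) => (g.1 (hF F ((F × F) × F))).2.1.1)
      (congrArg Subtype.val e)
    simp [siegel_apply] at e'
  obtain ⟨a⟩ := quot_center_equiv hS hP ψ'.rangeRestrict ψ'.rangeRestrict_surjective
  exact ⟨a.trans (centerQuotientEquiv ((Φ.subgroupMap _).trans (MulEquiv.subgroupCongr (by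
    rw [← hcomm]; exact map_commutator_top_of_equiv Φ))).symm)⟩

end Cfsg.Agent.Chev.Classical
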