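import Cfsg.Agent.Chev.Classical.Rep
import Cfsg.Prelude.Def_ChevB2

/-!
# The natural orthogonal representation for type B2
-/

set_option autoImplicit false

namespace Cfsg.Agent.Chev.Classical

open Cfsg.Lie

/-- The root elements and the form. -/
def repB2 : RepData 5 where
  rows :=
  [
    [⟨1, 0, 3, 2, 1⟩, ⟨1, 0, 4, 1, -1⟩],
    [⟨1, 0, 0, 1, 1⟩, ⟨1, 0, 3, 0, -2⟩, ⟨2, 0, 3, 1, -1⟩],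
    [⟨1, 0, 0, 2, -1⟩, ⟨1, 0, 4, 0, 2⟩, ⟨2, 0, 4, 2, -1⟩],
    [⟨1, 0, 2, 1, -1⟩, ⟨1, 0, 3, 4, 1⟩],
    [⟨1, 0, 1, 2, -1⟩, ⟨1, 0, 4, 3, 1⟩],
    [⟨1, 0, 0, 4, 1⟩, ⟨1, 0, 2, 0, -2⟩, ⟨2, 0, 2, 4, -1⟩],
    [⟨1, 0, 0, 3, -1⟩, ⟨1, 0, 1, 0, 2⟩, ⟨2, 0, 1, 3, -1⟩],
    [⟨1, 0, 1, 4, -1⟩, ⟨1, 0, 2, 3, 1⟩]]
  form :=
    [⟨0, 0, 0, 0, 1⟩, ⟨0, 0, 1, 3, 1⟩, ⟨0, 0, 2, 4, 1⟩]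

theorem repB2_ok : repOK chevB2 repB2 = true := by decide +kernel

end Cfsg.Agent.Chev.Classical
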